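import Cfsg.Agent.H21.FpfRep.GroupAlgebra
import Cfsg.Agent.H21.NonSolvable
import Mathlib.FieldTheory.IsAlgClosed.AlgebraicClosure
import Mathlib.LinearAlgebra.Quotient.Basic

/-!
Fixed-point-free representations in characteristic zero.
-/

namespace Cfsg.Agent.H21.FpfRep

open MonoidAlgebra

variable {G : Type*} [Group G] [Finite G]

/-- A group acting fixed-point-freely on a finite group: no nonzero integer is in the span of
translates of prime sums. -/
theorem not_mem_closure_of_action {K : Type*} [Group K] [Finite K] [Nontrivial K] (ψ : G →* MulAut K)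
    (hfpf : ∀ g : G, g ≠ 1 → ∀ v : K, ψ g v = v → v = 1) {m : ℕ} (hm : m ≠ 0) :
    m • (1 : MonoidAlgebra ℤ G) ∉ AddSubgroup.closure (Gens (G := G) ℤ) := by
  rcases subsingleton_or_nontrivial G with hs | hn
  · intro hmem
    have hempty : Gens (G := G) ℤ = ∅ := Set.eq_empty_of_forall_notMem fun x ⟨_, _, a, ha, _⟩ =>
      ha.ne_one (by rw [Subsingleton.elim a 1, orderOf_one])
    rw [hempty, AddSubgroup.closure_empty, AddSubgroup.mem_bot] at hmem
    have := congrArg (fun x : MonoidAlgebra ℤ G => x.coeff 1) hmem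
    simp [one_def] at this
    exact hm this
  · obtain ⟨k, _, _, V, _, _, _, _, ρ, hρ⟩ := Zass.exists_rep ψ hfpf
    exact not_mem_closure hρ hm

omit [Finite G] in
/-- Clearing denominators. -/
theorem exists_integral_of_mem_span {x : MonoidAlgebra ℚ G}
    (hx : x ∈ Submodule.span ℚ (Gens (G := G) ℚ)) :
    ∃ m : ℕ, m ≠ 0 ∧ ∃ y ∈ AddSubgroup.closure (Gens (G := G) ℤ),
      m • x = mapRingHom G (Int.castRingHom ℚ) y := by
  induction hx using Submodule.span_induction with
  | mem x hx =>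
    obtain ⟨g, h, a, ha, rfl⟩ := hx
    exact ⟨1, one_ne_zero, _, AddSubgroup.subset_closure ⟨g, h, a, ha, rfl⟩, by rw [one_smul, map_gen]⟩
  | zero => exact ⟨1, one_ne_zero, 0, zero_mem _, by simp⟩
  | add x y _ _ hx hy =>
    obtain ⟨m, hm, u, hu, eu⟩ := hx
    obtain ⟨n, hn, v, hv, ev⟩ := hy
    refine ⟨m * n, mul_ne_zero hm hn, n • u + m • v,
      add_mem (AddSubgroup.nsmul_mem _ hu n) (AddSubgroup.nsmul_mem _ hv m), ?_⟩
    rw [map_add, map_nsmul, map_nsmul, ← eu, ← ev, smul_add, ← mul_smul, ← mul_smul, mul_comm m n]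
  | smul c x _ hx =>
    obtain ⟨m, hm, u, hu, eu⟩ := hx
    refine ⟨c.den * m, mul_ne_zero c.den_ne_zero hm, c.num • u, AddSubgroup.zsmul_mem _ hu _, ?_⟩
    rw [map_zsmul, ← eu, ← Nat.cast_smul_eq_nsmul ℚ, ← Nat.cast_smul_eq_nsmul ℚ m x,
      ← Int.cast_smul_eq_zsmul ℚ, smul_smul, smul_smul, Nat.cast_mul]
    congr 1
    rw [mul_comm ((c.den : ℚ) * m), ← mul_assoc, Rat.mul_den_eq_num]

/-- A fixed-point-free action gives a fixed-point-free rational representation. -/
theorem exists_rat_rep {K : Type*} [Group K] [Finite K] [Nontrivial K] (ψ : G →* MulAut K)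
    (hfpf : ∀ g : G, g ≠ 1 → ∀ v : K, ψ g v = v → v = 1) :
    ∃ (n : ℕ) (M : G →* Matrix (Fin n) (Fin n) ℚ), 0 < n ∧ ∀ g : G, g ≠ 1 → IsUnit (M g - 1) := by
  classical
  have := Fintype.ofFinite G
  set I := Submodule.span ℚ (Gens (G := G) ℚ) with hI
  have h1 : (1 : MonoidAlgebra ℚ G) ∉ I := fun h => by
    obtain ⟨m, hm, y, hy, e⟩ := exists_integral_of_mem_span h
    refine not_mem_closure_of_action ψ hfpf hm ?_
    have e' : mapRingHom G (Int.castRingHom ℚ) (m • 1) = mapRingHom G (Int.castRingHom ℚ) y := by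
      rw [map_nsmul, map_one, e]
    convert hy using 1
    refine MonoidAlgebra.ext (Finsupp.ext fun g => (Int.castRingHom ℚ).injective_int ?_)
    rw [← coeff_mapRingHom, ← coeff_mapRingHom, e']
  have hinv : ∀ g : G, I ≤ I.comap (LinearMap.mulLeft ℚ (of ℚ G g)) := by
    intro g
    rw [hI, Submodule.span_le]
    rintro _ ⟨g', h, a, ha, rfl⟩
    refine Submodule.subset_span ⟨g * g', h, a, ha, ?_⟩
    rw [LinearMap.mulLeft_apply, map_mul, mul_assoc (of ℚ G g), mul_assoc (of ℚ G g)]
  let σ : G →* Module.End ℚ (MonoidAlgebra ℚ G ⧸ I) :=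
    { toFun := fun g => I.mapQ I (LinearMap.mulLeft ℚ (of ℚ G g)) (hinv g)
      map_one' := Submodule.linearMap_qext _ (LinearMap.ext fun y => by simp [← MonoidAlgebra.one_def])
      map_mul' := fun g h => Submodule.linearMap_qext _ (LinearMap.ext fun y => by simp [← mul_assoc]) }
  have hfree : ∀ a : G, a ≠ 1 → IsUnit (σ a - 1) := by
    intro a ha
    rw [LinearMap.isUnit_iff_ker_eq_bot, LinearMap.ker_eq_bot']
    intro v hv
    rw [LinearMap.sub_apply, Module.End.one_apply, sub_eq_zero] at hv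
    obtain ⟨p, hp, hpd⟩ := Nat.exists_prime_and_dvd (mt orderOf_eq_one_iff.mp ha)
    set b := a ^ (orderOf a / p)
    have hb : orderOf b = p := orderOf_pow_orderOf_div (orderOf_pos a).ne' hpd
    have hfix : ∀ j : ℕ, σ (a ^ j) v = v := fun j => by
      induction j with
      | zero => rw [pow_zero, map_one, Module.End.one_apply]
      | succ j ih => rw [pow_succ, map_mul, Module.End.mul_apply, hv, ih]
    have hsum : ∑ i ∈ Finset.range p, σ (b ^ i) v = 0 := by
      obtain ⟨y, rfl⟩ := Submodule.mkQ_surjective I v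
      show ∑ i ∈ Finset.range p, I.mkQ (of ℚ G (b ^ i) * y) = 0
      rw [← map_sum, ← Finset.sum_mul]
      refine (Submodule.Quotient.mk_eq_zero I).mpr ?_
      clear hv hfix
      induction y using MonoidAlgebra.induction_on with
      | of h =>
        refine Submodule.subset_span ⟨1, h, b, hb ▸ hp, ?_⟩
        rw [map_one, one_mul, primeSum, hb]
        simp [map_pow]
      | add x y hx hy => rw [mul_add]; exact I.add_mem hx hy
      | smul r x hx => rw [mul_smul_comm]; exact I.smul_mem r hx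
    rw [Finset.sum_congr rfl fun i _ => by rw [← pow_mul, hfix], Finset.sum_const, Finset.card_range,
      ← Nat.cast_smul_eq_nsmul ℚ] at hsum
    exact (smul_eq_zero.mp hsum).resolve_left (Nat.cast_ne_zero.mpr hp.ne_zero)
  have : Module.Finite ℚ (MonoidAlgebra ℚ G ⧸ I) := inferInstance
  have : Nontrivial (MonoidAlgebra ℚ G ⧸ I) :=
    ⟨⟨I.mkQ 1, 0, fun e => h1 ((Submodule.Quotient.mk_eq_zero I).mp e)⟩⟩
  let T := LinearMap.toMatrixAlgEquiv (Module.finBasis ℚ (MonoidAlgebra ℚ G ⧸ I))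
  refine ⟨_, T.toMulEquiv.toMonoidHom.comp σ, Module.finrank_pos, fun g hg => ?_⟩
  have := (hfree g hg).map T
  rwa [map_sub, map_one] at this

/-- A Frobenius complement has an irreducible fixed-point-free representation over an algebraic
closure of the rationals. -/
theorem exists_irreducible_rep {K : Type*} [Group K] [Finite K] [Nontrivial K] (ψ : G →* MulAut K)
    (hfpf : ∀ g : G, g ≠ 1 → ∀ v : K, ψ g v = v → v = 1) :
    ∃ (n : ℕ) (ρ : G →* GL (Fin n) (AlgebraicClosure ℚ)), 0 < n ∧ Function.Injective ρ ∧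
      (∀ W : Submodule (AlgebraicClosure ℚ) (Fin n → AlgebraicClosure ℚ),
        (∀ g : G, ∀ w ∈ W, ((ρ g : GL (Fin n) (AlgebraicClosure ℚ)) :
          Matrix (Fin n) (Fin n) (AlgebraicClosure ℚ)).mulVec w ∈ W) → W = ⊥ ∨ W = ⊤) ∧
      ∀ g : G, g ≠ 1 → ∀ v : Fin n → AlgebraicClosure ℚ,
        ((ρ g : GL (Fin n) (AlgebraicClosure ℚ)) :
          Matrix (Fin n) (Fin n) (AlgebraicClosure ℚ)).mulVec v = v → v = 0 := by
  obtain ⟨n, M, hn, hM⟩ := exists_rat_rep ψ hfpf
  let F := AlgebraicClosure ℚ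
  let Mk : G →* Matrix (Fin n) (Fin n) F := ((algebraMap ℚ F).mapMatrix.toMonoidHom).comp M
  have hMk : ∀ g : G, g ≠ 1 → ∀ v, (Mk g).mulVec v = v → v = 0 := fun g hg v hv => by
    have hu : IsUnit (Mk g - 1) := by
      have := (hM g hg).map (algebraMap ℚ F).mapMatrix
      rwa [map_sub, map_one] at this
    refine (Matrix.mulVec_injective_iff_isUnit.mpr hu) ?_
    rw [Matrix.sub_mulVec, hv, Matrix.one_mulVec, sub_self, Matrix.mulVec_zero]
  have : Nonempty (Fin n) := ⟨⟨0, hn⟩⟩
  obtain ⟨W, ⟨hW0, hWinv⟩, hmin⟩ := wellFounded_lt.has_min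
    {W : Submodule F (Fin n → F) | W ≠ ⊥ ∧ ∀ g, ∀ w ∈ W, (Mk g).mulVec w ∈ W}
    ⟨⊤, top_ne_bot, fun _ _ _ => trivial⟩
  let σ : G →* Module.End F W :=
    { toFun := fun g => (Matrix.toLinAlgEquiv' (Mk g)).restrict (hWinv g)
      map_one' := by ext w; simp
      map_mul' := fun g g' => LinearMap.ext fun w => Subtype.ext
        (show (Mk (g * g')).mulVec w = (Mk g).mulVec ((Mk g').mulVec w) by
          rw [map_mul, Matrix.mulVec_mulVec]) }
  have : Nontrivial W := Submodule.nontrivial_iff_ne_bot.mpr hW0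
  let b := Module.finBasis F W
  let ρ := ((LinearMap.toMatrixAlgEquiv b).toMulEquiv.toMonoidHom.comp σ).toHomUnits
  have hrepr : ∀ g (w : W), (ρ g).val.mulVec (b.repr w) = b.repr (σ g w) :=
    fun g w => LinearMap.toMatrix_mulVec_repr b b (σ g) w
  have hfpf' : ∀ g : G, g ≠ 1 → ∀ v, (ρ g).val.mulVec v = v → v = 0 := by
    intro g hg v hv
    obtain ⟨w, rfl⟩ := b.equivFun.surjective v
    have h : σ g w = w := b.equivFun.injective ((hrepr g w).symm.trans hv)
    rw [show w = 0 from Subtype.ext (hMk g hg w (congrArg Subtype.val h)), map_zero]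
  refine ⟨Module.finrank F W, ρ, Module.finrank_pos, ?_, ?_, hfpf'⟩
  · rw [injective_iff_map_eq_one]
    intro g hg
    by_contra hne
    obtain ⟨v, hv⟩ := exists_ne (0 : W)
    refine hv (b.equivFun.injective ((hfpf' g hne _ ?_).trans b.equivFun.map_zero.symm))
    rw [hg, Units.val_one, Matrix.one_mulVec]
  intro U hU
  let U' := (U.map b.equivFun.symm.toLinearMap).map W.subtype
  have hinvU : ∀ g, ∀ w ∈ U', (Mk g).mulVec w ∈ U' := by
    rintro g _ ⟨w, ⟨u, hu, rfl⟩, rfl⟩
    refine ⟨σ g (b.equivFun.symm u), ⟨_, hU g u hu, ?_⟩, rfl⟩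
    apply b.equivFun.injective
    rw [LinearEquiv.coe_coe, LinearEquiv.apply_symm_apply]
    show _ = ⇑(b.repr (σ g _))
    rw [← hrepr, show ⇑(b.repr (b.equivFun.symm u)) = u from b.equivFun.apply_symm_apply u]
  rcases (Submodule.map_subtype_le W _ : U' ≤ W).lt_or_eq with hlt | heq
  · left
    by_contra hU0
    refine hmin U' ⟨fun e => hU0 ?_, hinvU⟩ hlt
    exact Submodule.map_injective_of_injective b.equivFun.symm.injective
      ((Submodule.map_injective_of_injective W.injective_subtype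
        (e.trans (Submodule.map_bot _).symm)).trans (Submodule.map_bot _).symm)
  · right
    have h2 : U.map b.equivFun.symm.toLinearMap = ⊤ := by
      refine Submodule.map_injective_of_injective W.injective_subtype ?_
      rw [Submodule.map_top, Submodule.range_subtype]
      exact heq
    simpa using congrArg (Submodule.map b.equivFun.toLinearMap) h2

end Cfsg.Agent.H21.FpfRep
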