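import Cfsg.Agent.H21.Zassenhaus.FromAction
import Mathlib.RepresentationTheory.Maschke
import Mathlib.RingTheory.Idempotents
import Mathlib.Algebra.MonoidAlgebra.MapDomain

/-!
The sums over subgroups of prime order in the group algebra, and lifting of fixed-point-free
representations to characteristic zero through idempotents.
-/

namespace Cfsg.Agent.H21.FpfRep

open MonoidAlgebra

variable {G : Type*} [Group G]

section Defs

variable (R : Type*) [CommRing R]

/-- The sum over the subgroup generated by `a`. -/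
noncomputable def primeSum (a : G) : MonoidAlgebra R G :=
  ∑ i ∈ Finset.range (orderOf a), of R G a ^ i

/-- Translates of the sums over subgroups of prime order. -/
def Gens : Set (MonoidAlgebra R G) :=
  {x | ∃ g h a : G, (orderOf a).Prime ∧ x = of R G g * primeSum R a * of R G h}

variable {R}

theorem map_primeSum {S : Type*} [CommRing S] (f : R →+* S) (a : G) :
    mapRingHom G f (primeSum R a) = primeSum S a := by
  simp [primeSum, map_sum]

theorem map_gen {S : Type*} [CommRing S] (f : R →+* S) (g a h : G) :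
    mapRingHom G f (of R G g * primeSum R a * of R G h) = of S G g * primeSum S a * of S G h := by
  rw [map_mul, map_mul, map_primeSum]; simp

variable [Finite G]

omit [Finite G] in
theorem primeSum_mul_self (a : G) :
    primeSum R a * primeSum R a = (orderOf a : MonoidAlgebra R G) * primeSum R a := by
  have h : of R G a * primeSum R a = primeSum R a := by
    have := mul_geom_sum (of R G a) (orderOf a)
    rw [← map_pow, pow_orderOf_eq_one, map_one, sub_self, sub_mul, one_mul, sub_eq_zero] at this
    exact this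
  have hi : ∀ i : ℕ, of R G a ^ i * primeSum R a = primeSum R a := fun i => by
    induction i with
    | zero => rw [pow_zero, one_mul]
    | succ i ih => rw [pow_succ, mul_assoc, h, ih]
  nth_rw 1 [primeSum]
  rw [Finset.sum_mul, Finset.sum_congr rfl (fun i _ => hi i), Finset.sum_const, Finset.card_range,
    nsmul_eq_mul]

end Defs

variable [Finite G]

/-- An idempotent of a semisimple group algebra killed by the two-sided ideal of a representation. -/
theorem exists_idempotent_of_hom {F : Type*} [Field F] [NeZero (Nat.card G : F)] {E : Type*} [Ring E]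
    [Nontrivial E] (Φ : MonoidAlgebra F G →+* E) :
    ∃ e : MonoidAlgebra F G, IsIdempotentElem e ∧ e ≠ 0 ∧ ∀ n, Φ n = 0 → n * e = 0 := by
  obtain ⟨C, hC⟩ := exists_isCompl (RingHom.ker Φ : Submodule (MonoidAlgebra F G) (MonoidAlgebra F G))
  obtain ⟨i, hi, e, he, hie⟩ := Submodule.mem_sup.mp (hC.sup_eq_top.ge (Submodule.mem_top (x := (1 : MonoidAlgebra F G))))
  have hzero : ∀ x, Φ x = 0 → x ∈ C → x = 0 := fun x hx hxC =>
    (Submodule.disjoint_def.mp hC.disjoint) x hx hxC
  have hi' : Φ i = 0 := hi
  have h2 : e * i = 0 := by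
    refine hzero _ (by rw [map_mul, hi', mul_zero]) ?_
    have e1 : e * i = e - e * e := by rw [eq_sub_iff_add_eq, ← mul_add, hie, mul_one]
    rw [e1]
    exact C.sub_mem he (C.smul_mem e he)
  refine ⟨e, ?_, ?_, fun n hn => hzero _ (by rw [map_mul, hn, zero_mul]) (C.smul_mem n he)⟩
  · calc e * e = e * i + e * e := by rw [h2, zero_add]
      _ = e := by rw [← mul_add, hie, mul_one]
  · intro e0
    rw [e0, add_zero] at hie
    rw [hie, map_one] at hi'
    exact one_ne_zero hi'

/-- An element with coefficients in the kernel of reduction is a multiple of `q`. -/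
theorem exists_eq_smul_of_reduce {q n : ℕ} [Fact q.Prime] (hn : n ≠ 0) {x : MonoidAlgebra (ZMod (q ^ n)) G}
    (hx : mapRingHom G (ZMod.castHom (dvd_pow_self q hn) (ZMod q)) x = 0) :
    ∃ z : MonoidAlgebra (ZMod (q ^ n)) G, x = q • z := by
  classical
  have := Fintype.ofFinite G
  have : NeZero (q ^ n) := ⟨pow_ne_zero _ (Fact.out : q.Prime).ne_zero⟩
  refine ⟨∑ g, single g (((x.coeff g).val / q : ℕ) : ZMod (q ^ n)), MonoidAlgebra.ext ?_⟩
  refine Finsupp.ext fun g => ?_
  have h := congrArg (fun y : MonoidAlgebra (ZMod q) G => y.coeff g) hx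
  simp only [coeff_mapRingHom, coeff_zero, Finsupp.zero_apply] at h
  rw [ZMod.castHom_apply, ZMod.cast_eq_val, ZMod.natCast_eq_zero_iff] at h
  have e : (x.coeff g) = (q : ZMod (q ^ n)) * (((x.coeff g).val / q : ℕ) : ZMod (q ^ n)) := by
    rw [← Nat.cast_mul, Nat.mul_div_cancel' h, ZMod.natCast_zmod_val]
  nth_rw 1 [e]
  rw [coeff_smul, Finsupp.smul_apply, coeff_sum, Finsupp.finsetSum_apply]
  simp [Finsupp.single_apply]

/-- With a fixed-point-free representation in some characteristic, no nonzero integer lies in the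
integral span of the translates of prime sums. -/
theorem not_mem_closure {k : Type*} [Field k] {V : Type*} [AddCommGroup V] [Module k V]
    [FiniteDimensional k V] [Nontrivial V] {ρ : G →* Module.End k V} (h : Zass.IsFpf ρ) {m : ℕ}
    (hm : m ≠ 0) : m • (1 : MonoidAlgebra ℤ G) ∉ AddSubgroup.closure (Gens (G := G) ℤ) := by
  intro hmem
  have hsum : ∀ a : G, (orderOf a).Prime → ∑ i ∈ Finset.range (orderOf a), ρ a ^ i = 0 := fun a ha =>
    h.geom_sum_eq_zero (pow_orderOf_eq_one a) fun e => ha.ne_one (by rw [e, orderOf_one])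
  obtain ⟨q, hq⟩ := CharP.exists k
  rcases CharP.char_is_prime_or_zero k q with hqp | rfl
  swap
  · -- characteristic zero
    have := CharP.charP_to_charZero k
    have hle : AddSubgroup.closure (Gens (G := G) ℤ) ≤
        (lift ℤ (Module.End k V) G ρ).toRingHom.toAddMonoidHom.ker := by
      rw [AddSubgroup.closure_le]
      rintro _ ⟨g, h', a, ha, rfl⟩
      simp only [SetLike.mem_coe, AddMonoidHom.mem_ker, RingHom.toAddMonoidHom_eq_coe,
        AddMonoidHom.coe_coe, map_mul, primeSum, map_sum, map_pow]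
      simp [hsum a ha]
    have h0 := hle hmem
    simp only [AddMonoidHom.mem_ker, RingHom.toAddMonoidHom_eq_coe, AddMonoidHom.coe_coe, map_nsmul,
      map_one] at h0
    obtain ⟨v, hv⟩ := exists_ne (0 : V)
    have h1 := congrArg (fun f : Module.End k V => f v) h0
    simp only [LinearMap.smul_apply, Module.End.one_apply, LinearMap.zero_apply] at h1
    rw [← Nat.cast_smul_eq_nsmul k] at h1
    exact hv ((smul_eq_zero.mp h1).resolve_left (Nat.cast_ne_zero.mpr hm))
  -- characteristic `q`
  have := Fact.mk hqp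
  have : NeZero (Nat.card G : ZMod q) := ⟨fun e => by
    rw [ZMod.natCast_eq_zero_iff] at e
    exact h.prime_ne_zero hqp e (CharP.cast_eq_zero k q)⟩
  let _ : Algebra (ZMod q) (Module.End k V) :=
    ((algebraMap k (Module.End k V)).comp (ZMod.castHom dvd_rfl k)).toAlgebra'
      (fun c x => Algebra.commutes (ZMod.castHom dvd_rfl k c) x)
  obtain ⟨e, he, he0, hkill⟩ := exists_idempotent_of_hom (lift (ZMod q) (Module.End k V) G ρ).toRingHom
  have hNe : ∀ a : G, (orderOf a).Prime → ∀ y, primeSum (ZMod q) a * y * e = 0 := fun a ha y => by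
    refine hkill _ ?_
    simp [primeSum, map_sum, map_pow, hsum a ha]
  set red : MonoidAlgebra (ZMod (q ^ m)) G →+* MonoidAlgebra (ZMod q) G :=
    mapRingHom G (ZMod.castHom (dvd_pow_self q hm) (ZMod q))
  have hnil : ∀ x ∈ RingHom.ker red, IsNilpotent x := fun x hx => by
    obtain ⟨z, rfl⟩ := exists_eq_smul_of_reduce hm hx
    refine ⟨m, ?_⟩
    rw [smul_pow, ← Nat.cast_smul_eq_nsmul (ZMod (q ^ m)), ZMod.natCast_self, zero_smul]
  have hsurj : e ∈ red.range := by
    classical
    have := Fintype.ofFinite G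
    have : NeZero q := ⟨hqp.ne_zero⟩
    refine ⟨∑ g, single g (((e.coeff g).val : ℕ) : ZMod (q ^ m)), MonoidAlgebra.ext (Finsupp.ext fun g => ?_)⟩
    simp [red, coeff_sum]
  obtain ⟨e', he', hee'⟩ := exists_isIdempotentElem_eq_of_ker_isNilpotent red hnil e hsurj he
  -- prime sums kill the lifted idempotent
  have hN : ∀ a : G, (orderOf a).Prime → ∀ y, primeSum (ZMod (q ^ m)) a * y * e' = 0 := by
    intro a ha y
    have hp : IsUnit ((orderOf a : ℕ) : ZMod (q ^ m)) := by
      rw [ZMod.isUnit_iff_coprime]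
      refine Nat.Coprime.pow_right _ ((Nat.coprime_primes ha hqp).mpr fun e1 => ?_)
      exact h.prime_ne_zero hqp (e1 ▸ orderOf_dvd_natCard a) (CharP.cast_eq_zero k q)
    have key : ∀ j : ℕ, ∀ y, ∃ z, primeSum (ZMod (q ^ m)) a * y * e' = q ^ j • (z * e') := by
      intro j
      induction j with
      | zero => exact fun y => ⟨primeSum (ZMod (q ^ m)) a * y, by rw [pow_zero, one_smul]⟩
      | succ j ih =>
        intro y
        obtain ⟨z, hz⟩ := ih y
        obtain ⟨w, hw⟩ := exists_eq_smul_of_reduce hm (x := primeSum (ZMod (q ^ m)) a * z * e') (by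
          rw [map_mul, map_mul, hee', map_primeSum]; exact hNe a ha _)
        have h2 : ((orderOf a : ℕ) : MonoidAlgebra (ZMod (q ^ m)) G) * (primeSum (ZMod (q ^ m)) a * y * e') =
            q ^ (j + 1) • (w * e') := by
          rw [← mul_assoc, ← mul_assoc, ← primeSum_mul_self, mul_assoc _ _ y, mul_assoc, hz,
            mul_smul_comm, pow_succ, mul_smul, ← mul_assoc]
          congr 1
          rw [← smul_mul_assoc, ← hw, mul_assoc _ e' e', he'.eq]
        obtain ⟨u, hu⟩ := hp.map (algebraMap (ZMod (q ^ m)) (MonoidAlgebra (ZMod (q ^ m)) G))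
        rw [map_natCast] at hu
        refine ⟨↑u⁻¹ * w, ?_⟩
        rw [← hu] at h2
        rw [mul_assoc (↑u⁻¹ : MonoidAlgebra (ZMod (q ^ m)) G), ← mul_smul_comm, ← h2,
          Units.inv_mul_cancel_left]
    obtain ⟨z, hz⟩ := key m y
    rw [hz, ← Nat.cast_smul_eq_nsmul (ZMod (q ^ m)), ZMod.natCast_self, zero_smul]
  have hle : AddSubgroup.closure (Gens (G := G) ℤ) ≤
      ((AddMonoidHom.mulRight e').comp
        (mapRingHom G (Int.castRingHom (ZMod (q ^ m)))).toAddMonoidHom).ker := by
    rw [AddSubgroup.closure_le]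
    rintro _ ⟨g, h', a, ha, rfl⟩
    simp only [SetLike.mem_coe, AddMonoidHom.mem_ker, AddMonoidHom.comp_apply,
      RingHom.toAddMonoidHom_eq_coe, AddMonoidHom.coe_coe, AddMonoidHom.coe_mulRight, map_gen]
    rw [mul_assoc, mul_assoc, ← mul_assoc (primeSum _ a), hN a ha, mul_zero]
  have h0 := hle hmem
  simp only [AddMonoidHom.mem_ker, AddMonoidHom.comp_apply, RingHom.toAddMonoidHom_eq_coe,
    AddMonoidHom.coe_coe, AddMonoidHom.coe_mulRight, map_nsmul, map_one, one_mul] at h0
  obtain ⟨g, hg⟩ : ∃ g, e.coeff g ≠ 0 := by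
    by_contra hall
    push Not at hall
    exact he0 (MonoidAlgebra.ext (Finsupp.ext fun g => by simpa using hall g))
  have : NeZero (q ^ m) := ⟨pow_ne_zero _ hqp.ne_zero⟩
  have hunit : IsUnit (e'.coeff g) := by
    rw [← ZMod.natCast_zmod_val (e'.coeff g), ZMod.isUnit_iff_coprime]
    refine Nat.Coprime.pow_right _ (Nat.Coprime.symm ((Nat.Prime.coprime_iff_not_dvd hqp).mpr fun hd => hg ?_))
    rw [← hee', coeff_mapRingHom, ← ZMod.natCast_zmod_val (e'.coeff g), map_natCast,
      ZMod.natCast_eq_zero_iff]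
    exact hd
  have h1 := congrArg (fun y : MonoidAlgebra (ZMod (q ^ m)) G => y.coeff g) h0
  rw [coeff_smul, Finsupp.smul_apply, coeff_zero, Finsupp.zero_apply, nsmul_eq_mul,
    hunit.mul_left_eq_zero, ZMod.natCast_eq_zero_iff] at h1
  exact (Nat.lt_pow_self hqp.one_lt).not_ge (Nat.le_of_dvd (Nat.pos_of_ne_zero hm) h1)

end Cfsg.Agent.H21.FpfRep
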